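import Mathlib
import Cfsg.Agent.H617.Pb.Defs
import Cfsg.Agent.H613.RegGram
import Cfsg.Agent.H611.CoverPrincipal
import Cfsg.Agent.H133.PB.Basic
import Cfsg.Agent.Blocks.RegularCount
import Cfsg.Agent.Blocks.PrincipalSection
import Cfsg.Agent.S0157

/-!
# A nontrivial character of the principal block which extends, from a permutation action (B10 for S4822)

* `core` : `N` normal in `G`, `G` transitive on `X` with `p ∣ |X|`, and `G`, `N` have the same orbits on `X × X`: some
  `χ ∈ B₀(G)` restricts to a nontrivial irreducible character of `B₀(N)`.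
* `rho_of_perm` : the same for `Inn S ≤ A ≤ Aut S`.
-/

set_option autoImplicit false

open Cfsg
open scoped ComplexConjugate

namespace Cfsg.Agent.H575.Pb

open Cfsg.Agent.Characters.Core Cfsg.Agent.H613.RegGram Cfsg.Agent.Blocks.Blau
open Cfsg.Agent.S0157 (isCharacter_fixedBy avg_fixedBy card_fixedBy_prod card_orbits_of_pretransitive)
open MulAction

universe u v

/-- The permutation character. -/
noncomputable def pc (G : Type*) [Group G] (X : Type*) [MulAction G X] : G → ℂ :=
  fun g => (Nat.card (fixedBy X g) : ℂ)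

theorem inner_pc_one {G : Type*} [Group G] [Fintype G] (X : Type*) [MulAction G X] [Finite X] [IsPretransitive G X]
    [Nonempty X] : classInner (pc G X) 1 = 1 := by
  rw [classInner_def]
  have h := avg_fixedBy (G := G) X
  rw [card_orbits_of_pretransitive] at h
  simp only [pc, Pi.one_apply, map_one, mul_one]
  rw [h]
  norm_num

theorem inner_pc_self {G : Type*} [Group G] [Fintype G] (X : Type*) [MulAction G X] [Finite X] :
    classInner (pc G X) (pc G X) = (Nat.card (Quotient (orbitRel G (X × X))) : ℂ) := by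
  rw [classInner_def, ← avg_fixedBy (G := G) (X × X)]
  congr 1
  refine Finset.sum_congr rfl fun g _ => ?_
  rw [card_fixedBy_prod, pc, Complex.conj_natCast]
  push_cast
  rfl

section reg

variable {G : Type u} [Group G] {p : ℕ} [hp : Fact p.Prime] {M : Ideal AlgInt}

theorem mem_of_reg [Fintype G] (hM : IsPModular p M) (χ : IrrCharacter G)
    (h : ∑ g : G, regPart p (χ : G → ℂ) g ≠ 0) : χ ∈ principalBlock M G := by
  have := Cfsg.Agent.Blocks.Local.isPrime_of_isPModular hM
  by_contra hcon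
  have h1 := rg_eq_zero' hM (Cfsg.Agent.Blocks.PrincipalSection.isPBlock_principalBlock (M := M) (K := G)) hcon
    Cfsg.Agent.Blocks.PrincipalSection.one_mem_principalBlock
  have h2 : rg p (χ : G → ℂ) (fun _ : G => (1 : ℂ)) = (Nat.card G : ℂ)⁻¹ * ∑ g : G, regPart p (χ : G → ℂ) g := by
    rw [rg_def, pair_def]
    congr 1
    refine Finset.sum_congr rfl fun g _ => ?_
    by_cases h : p ∣ orderOf g
    · rw [regPart_of_dvd h, regPart_of_dvd h, zero_mul]
    · rw [regPart_of_not_dvd h, regPart_of_not_dvd h, map_one, one_mul]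
  have h3 : rg p (χ : G → ℂ) (fun _ : G => (1 : ℂ)) = 0 := h1
  rw [h3] at h2
  rcases mul_eq_zero.1 h2.symm with h4 | h4
  · exact absurd h4 (inv_ne_zero (by exact_mod_cast Nat.card_pos.ne'))
  · exact h h4

omit hp in
theorem sum_regPart_one [Fintype G] :
    ∑ g : G, regPart p (1 : G → ℂ) g = (Nat.card {x : G // ¬ p ∣ orderOf x} : ℂ) := by
  classical
  have h1 : ∀ g : G, regPart p (1 : G → ℂ) g = if ¬ p ∣ orderOf g then (1 : ℂ) else 0 := by
    intro g
    by_cases h : p ∣ orderOf g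
    · rw [regPart_of_dvd h, if_neg (not_not.2 h)]
    · rw [regPart_of_not_dvd h, if_pos h]; rfl
  rw [Finset.sum_congr rfl fun g _ => h1 g, Finset.sum_boole, Nat.card_eq_fintype_card, Fintype.card_subtype]

omit hp in
theorem sum_regPart_pc [Fintype G] (X : Type v) [MulAction G X] [Finite X] [Nonempty X] [IsPretransitive G X] :
    ∃ c : ℕ, ∑ g : G, regPart p (pc G X) g = ((Nat.card X * c : ℕ) : ℂ) := by
  classical
  have := Fintype.ofFinite X
  let cc : X → ℕ := fun x => (Finset.univ.filter fun g : G => ¬ p ∣ orderOf g ∧ g • x = x).card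
  have hcc : ∀ x y : X, cc x = cc y := by
    intro x y
    obtain ⟨k, hk⟩ := exists_smul_eq G x y
    refine Finset.card_bij' (fun g _ => k * g * k⁻¹) (fun g _ => k⁻¹ * g * k) ?_ ?_ ?_ ?_
    · intro g hg
      simp only [Finset.mem_filter, Finset.mem_univ, true_and] at hg ⊢
      refine ⟨?_, ?_⟩
      · have : orderOf (k * g * k⁻¹) = orderOf g := (MulAut.conj k).orderOf_eq g
        rw [this]; exact hg.1
      · rw [← hk, mul_smul, mul_smul, inv_smul_smul, hg.2]
    · intro g hg
      simp only [Finset.mem_filter, Finset.mem_univ, true_and] at hg ⊢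
      refine ⟨?_, ?_⟩
      · have : orderOf (k⁻¹ * g * k) = orderOf g := by
          have := (MulAut.conj k⁻¹).orderOf_eq g
          rwa [MulAut.conj_apply, inv_inv] at this
        rw [this]; exact hg.1
      · rw [mul_smul, mul_smul, hk, hg.2, ← hk, inv_smul_smul]
    · intro g _; group
    · intro g _; group
  have h1 : ∀ g : G, regPart p (pc G X) g = ∑ x : X, if ¬ p ∣ orderOf g ∧ g • x = x then (1 : ℂ) else 0 := by
    intro g
    by_cases h : p ∣ orderOf g
    · rw [regPart_of_dvd h]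
      simp [h]
    · rw [regPart_of_not_dvd h]
      simp only [h, not_false_eq_true, true_and]
      rw [Finset.sum_boole, pc, Nat.card_eq_fintype_card, ← Fintype.card_subtype]
      rfl
  refine ⟨cc (Classical.arbitrary X), ?_⟩
  rw [Finset.sum_congr rfl fun g _ => h1 g, Finset.sum_comm]
  have h2 : ∀ x : X, ∑ g : G, (if ¬ p ∣ orderOf g ∧ g • x = x then (1 : ℂ) else 0) =
      (cc (Classical.arbitrary X) : ℂ) := by
    intro x
    rw [Finset.sum_boole, ← hcc x]
  rw [Finset.sum_congr rfl fun x _ => h2 x, Finset.sum_const, Finset.card_univ, nsmul_eq_mul,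
    ← Nat.card_eq_fintype_card]
  push_cast
  rfl

end reg

/-- **The core**. -/
theorem core {G : Type u} [Group G] [Finite G] {p : ℕ} [hp : Fact p.Prime] {M : Ideal AlgInt}
    (hM : IsPModular p M) (N : Subgroup G) [N.Normal] (X : Type v) [MulAction G X] [Finite X] [Nonempty X]
    [IsPretransitive G X] (hpX : p ∣ Nat.card X)
    (horb : ∀ (g : G) (x y : X), ∃ n ∈ N, g • x = n • x ∧ g • y = n • y) :
    ∃ χ ∈ principalBlock M G, ∃ θ ∈ principalBlock M ↥N, (∃ x, (θ : ↥N → ℂ) x ≠ 1) ∧
      ∀ n : ↥N, (χ : G → ℂ) n = (θ : ↥N → ℂ) n := by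
  classical
  have := Fintype.ofFinite G
  have := Fintype.ofFinite N
  have := finite_irr (G := G)
  have := Fintype.ofFinite (IrrCharacter G)
  -- the multiplicities
  obtain ⟨m, hm⟩ := exists_nat_comb (isCharacter_fixedBy (G := G) X)
  change pc G X = _ at hm
  let ι : IrrCharacter G := ⟨1, isIrr_one⟩
  have hm1 : m ι = 1 := by
    have h1 := inner_pc_one (G := G) X
    rw [hm] at h1
    have h2 := classInner_sum_nsmul_irr m ι
    have h3 : ((m ι : ℕ) : ℂ) = 1 := by rw [← h2]; exact h1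
    exact_mod_cast h3
  -- a nontrivial constituent with a nonzero sum over the regular elements
  obtain ⟨χ, hχm, hχ1, hχr⟩ : ∃ χ : IrrCharacter G, m χ ≠ 0 ∧ χ ≠ ι ∧ ∑ g : G, regPart p (χ : G → ℂ) g ≠ 0 := by
    by_contra hcon
    push Not at hcon
    have h1 : ∑ g : G, regPart p (pc G X) g = ∑ χ : IrrCharacter G, (m χ : ℂ) * ∑ g : G, regPart p (χ : G → ℂ) g := by
      have h2 : ∀ g : G, regPart p (pc G X) g = ∑ χ : IrrCharacter G, (m χ : ℂ) * regPart p (χ : G → ℂ) g := by
        intro g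
        by_cases h : p ∣ orderOf g
        · rw [regPart_of_dvd h]
          refine (Finset.sum_eq_zero fun χ _ => ?_).symm
          rw [regPart_of_dvd h, mul_zero]
        · rw [regPart_of_not_dvd h, hm, Finset.sum_apply]
          refine Finset.sum_congr rfl fun χ _ => ?_
          rw [regPart_of_not_dvd h, Pi.smul_apply, nsmul_eq_mul]
      rw [Finset.sum_congr rfl fun g _ => h2 g, Finset.sum_comm]
      refine Finset.sum_congr rfl fun χ _ => ?_
      rw [Finset.mul_sum]
    rw [Finset.sum_eq_single ι] at h1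
    · rw [hm1, Nat.cast_one, one_mul] at h1
      obtain ⟨c, hc⟩ := sum_regPart_pc (G := G) (p := p) X
      rw [hc] at h1
      have h3 := sum_regPart_one (G := G) (p := p)
      have h4 : ((Nat.card X * c : ℕ) : ℂ) = (Nat.card {x : G // ¬ p ∣ orderOf x} : ℂ) := by
        rw [h1, ← h3]
      have h5 : Nat.card X * c = Nat.card {x : G // ¬ p ∣ orderOf x} := by exact_mod_cast h4
      have h6 : p ∣ Nat.card {x : G // ¬ p ∣ orderOf x} := by
        rw [← h5]; exact hpX.mul_right c
      exact Cfsg.Agent.Blocks.RegularCount.not_dvd_card_regular h6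
    · intro χ _ hχ
      by_cases h0 : m χ = 0
      · rw [h0, Nat.cast_zero, zero_mul]
      · rw [hcon χ h0 hχ, mul_zero]
    · intro h; exact absurd (Finset.mem_univ _) h
  -- restrictions
  let res : IrrCharacter G → (↥N → ℂ) := fun χ n => (χ : G → ℂ) n
  have hres : ∀ χ, IsCharacter ↥N (res χ) := fun χ => isCharacter_comp N.subtype (isIrr_isCharacter χ.2)
  choose c hc using fun χ ψ => classInner_isNat (hres χ) (hres ψ)
  have hpos : ∀ χ, 0 < c χ χ := by
    intro χ
    rcases Nat.eq_zero_or_pos (c χ χ) with h | h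
    · exfalso
      have h1 := hc χ χ
      rw [h, Nat.cast_zero] at h1
      have h2 := congrFun (classInner_self_eq_zero h1) 1
      exact isIrr_apply_one_ne_zero χ.2 h2
    · exact h
  have hresm : pc ↥N X = ∑ χ : IrrCharacter G, m χ • res χ := by
    funext n
    have h1 := congrFun hm (n : G)
    rw [Finset.sum_apply] at h1 ⊢
    exact h1
  have hnormN : classInner (pc ↥N X) (pc ↥N X) = ((∑ χ : IrrCharacter G, ∑ ψ : IrrCharacter G, m χ * m ψ * c χ ψ : ℕ) : ℂ) := by
    rw [hresm, classInner_sum_left]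
    push_cast
    refine Finset.sum_congr rfl fun χ _ => ?_
    rw [← Nat.cast_smul_eq_nsmul ℂ, classInner_smul_left, classInner_sum_right, Finset.mul_sum]
    refine Finset.sum_congr rfl fun ψ _ => ?_
    rw [← Nat.cast_smul_eq_nsmul ℂ, classInner_smul_right, Complex.conj_natCast, hc χ ψ]
    ring
  have hnormG : classInner (pc G X) (pc G X) = ((∑ χ : IrrCharacter G, m χ * m χ : ℕ) : ℂ) := by
    have h2 := classInner_sum_smul_sum_smul (fun ψ : IrrCharacter G => (m ψ : ℂ)) (fun ψ => (m ψ : ℂ))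
    simp only [Nat.cast_smul_eq_nsmul] at h2
    rw [hm, h2]
    simp only [map_natCast]
    push_cast
    rfl
  -- the same orbits
  have hEq : orbitRel ↥N (X × X) = orbitRel G (X × X) := by
    ext a b
    rw [orbitRel_apply, orbitRel_apply]
    constructor
    · rintro ⟨n, rfl⟩
      exact ⟨(n : G), rfl⟩
    · rintro ⟨g, rfl⟩
      obtain ⟨n, hn, h1, h2⟩ := horb g b.1 b.2
      refine ⟨⟨n, hn⟩, ?_⟩
      exact Prod.ext h1.symm h2.symm
  have hsum : ∑ χ : IrrCharacter G, ∑ ψ : IrrCharacter G, m χ * m ψ * c χ ψ = ∑ χ : IrrCharacter G, m χ * m χ := by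
    have h1 : classInner (pc ↥N X) (pc ↥N X) = classInner (pc G X) (pc G X) := by
      rw [inner_pc_self, inner_pc_self, hEq]
    rw [hnormN, hnormG] at h1
    exact_mod_cast h1
  -- termwise
  have hle : ∀ χ : IrrCharacter G, m χ * m χ ≤ ∑ ψ : IrrCharacter G, m χ * m ψ * c χ ψ := by
    intro χ
    calc m χ * m χ ≤ m χ * m χ * c χ χ := Nat.le_mul_of_pos_right _ (hpos χ)
      _ ≤ ∑ ψ : IrrCharacter G, m χ * m ψ * c χ ψ :=
        Finset.single_le_sum (f := fun ψ => m χ * m ψ * c χ ψ) (fun _ _ => Nat.zero_le _) (Finset.mem_univ χ)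
  have heq : ∀ χ : IrrCharacter G, m χ * m χ = ∑ ψ : IrrCharacter G, m χ * m ψ * c χ ψ := fun χ =>
    (Finset.sum_eq_sum_iff_of_le fun χ _ => hle χ).1 hsum.symm χ (Finset.mem_univ χ)
  have hχ := heq χ
  have hsplit := Finset.add_sum_erase Finset.univ (fun ψ => m χ * m ψ * c χ ψ) (Finset.mem_univ χ)
  rw [← hχ] at hsplit
  have hmm : 0 < m χ * m χ := Nat.mul_pos (Nat.pos_of_ne_zero hχm) (Nat.pos_of_ne_zero hχm)
  have hcχ : c χ χ = 1 := by
    have h1 : m χ * m χ * c χ χ ≤ m χ * m χ * 1 := by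
      rw [mul_one]
      exact le_trans (Nat.le_add_right _ _) hsplit.le
    have h2 := Nat.le_of_mul_le_mul_left h1 hmm
    have h3 := hpos χ
    omega
  have hcι : c χ ι = 0 := by
    have h1 : m χ * m χ * c χ χ + ∑ ψ ∈ Finset.univ.erase χ, m χ * m ψ * c χ ψ = m χ * m χ := hsplit
    rw [hcχ, mul_one] at h1
    have h2 : ∑ ψ ∈ Finset.univ.erase χ, m χ * m ψ * c χ ψ = 0 := by omega
    rw [Finset.sum_eq_zero_iff] at h2
    have h3 := h2 ι (Finset.mem_erase.2 ⟨fun h => hχ1 h.symm, Finset.mem_univ _⟩)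
    rw [hm1, mul_one] at h3
    rcases Nat.mul_eq_zero.1 h3 with h4 | h4
    · exact absurd h4 hχm
    · exact h4
  have hirr : IsIrrCharacter ↥N (res χ) := isIrr_of_classInner_self (hres χ) (by rw [hc χ χ, hcχ, Nat.cast_one])
  have hχB : χ ∈ principalBlock M G := mem_of_reg hM χ hχr
  refine ⟨χ, hχB, ⟨res χ, hirr⟩, ?_, ?_, fun n => rfl⟩
  · refine Cfsg.Agent.H611.CoverPrincipal.mem_principalBlock_of_over p hM N χ ⟨res χ, hirr⟩ ?_ hχB
    have h1 := hc χ χ
    rw [hcχ, Nat.cast_one] at h1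
    intro h2
    have h3 : classInner (res χ) (res χ) = 0 := h2
    rw [h1] at h3
    exact one_ne_zero h3
  · by_contra hcon
    push Not at hcon
    have h1 : res χ = 1 := funext hcon
    have h2 : res ι = 1 := rfl
    have h3 := hc χ ι
    rw [hcι, h2, h1, classInner_irr_self isIrr_one] at h3
    norm_num at h3

open Cfsg.Agent.H617.Pb

/-- **B10**: a transitive action of `S` of degree divisible by `p`, extended to `Aut S`, with the same orbits on pairs. -/
theorem rho_of_perm {S : Type u} [Group S] [Finite S] [IsSimpleGroup S] {p : ℕ} [Fact p.Prime]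
    (_hS : ¬ IsMulCommutative S) {Ω : Type v} [Finite Ω] [Nonempty Ω] [MulAction (MulAut S) Ω]
    (htr : ∀ x y : Ω, ∃ s : S, MulAut.conj s • x = y) (hpΩ : p ∣ Nat.card Ω)
    (horb : ∀ (a : MulAut S) (x y : Ω), ∃ s : S, a • x = MulAut.conj s • x ∧ a • y = MulAut.conj s • y) :
    Rho p S := by
  classical
  intro M hM A hA
  have hfin : Finite (MulAut S) := Finite.of_injective (fun f : MulAut S => (f : S → S)) DFunLike.coe_injective
  have hMp := Cfsg.Agent.Blocks.Local.isPrime_of_isPModular hM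
  have hInn : (Inn S).Normal := by
    refine ⟨?_⟩
    rintro _ ⟨s, rfl⟩ a
    refine ⟨a s, ?_⟩
    ext t
    simp [MulAut.conj_apply]
  let N : Subgroup ↥A := (Inn S).subgroupOf A
  have hN : N.Normal := hInn.subgroupOf A
  have hpre : IsPretransitive ↥A Ω := ⟨fun x y => by
    obtain ⟨s, hs⟩ := htr x y
    exact ⟨⟨MulAut.conj s, hA.1 ⟨s, rfl⟩⟩, hs⟩⟩
  have horb' : ∀ (g : ↥A) (x y : Ω), ∃ n ∈ N, g • x = n • x ∧ g • y = n • y := by
    intro g x y
    obtain ⟨s, h1, h2⟩ := horb (g : MulAut S) x y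
    exact ⟨⟨MulAut.conj s, hA.1 ⟨s, rfl⟩⟩, Subgroup.mem_subgroupOf.2 ⟨s, rfl⟩, h1, h2⟩
  obtain ⟨χ, hχ, θ, hθ, ⟨x, hx⟩, h⟩ := core hM N Ω hpΩ horb'
  let e : ↥N ≃* ↥(Inn S) := Subgroup.subgroupOfEquivOfLe hA.1
  have h1 := Cfsg.Agent.H133.PB.mem_principalBlock_comp e.symm.toMonoidHom e.symm.surjective hθ
  refine ⟨χ, hχ, _, h1, ⟨e x, ?_⟩, ?_⟩
  · show (θ : ↥N → ℂ) (e.symm (e x)) ≠ 1
    rw [MulEquiv.symm_apply_apply]
    exact hx
  · intro a y hay
    show (χ : ↥A → ℂ) a = (θ : ↥N → ℂ) (e.symm y)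
    rw [← h (e.symm y)]
    refine congrArg (χ : ↥A → ℂ) (Subtype.ext ?_)
    rw [hay]
    have h2 : e (e.symm y) = y := e.apply_symm_apply y
    exact (congrArg (fun z : ↥(Inn S) => (z : MulAut S)) h2).symm

end Cfsg.Agent.H575.Pb
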